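import Cfsg.Agent.SpQuad.Sp
import Cfsg.Agent.NonsingPoint.Minus

set_option autoImplicit false

/-! Elements of `Sp_{2d}(q)`, `q` even, preserving forms of one type only. -/

namespace CfsgLib.SpQuad

open Matrix QuadraticMap CfsgLib.Forms CfsgLib.NonsingPoint

variable {F : Type*} [Field F] {d : ℕ}

local notation "V" => (Fin d ⊕ Fin d → F)
local notation "mx" => (fun (g : GL (Fin d ⊕ Fin d) F) => (g : Matrix (Fin d ⊕ Fin d) (Fin d ⊕ Fin d) F))

theorem isPlus_iff_isPlusTypeOn {Q : QuadraticForm F V} (hQ : Polarizes Q) :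
    IsPlus d Q ↔ Cfsg.Geo.IsPlusTypeOn ⇑Q ⊤ := by
  constructor
  · rintro ⟨S, hS, hSd⟩
    refine ⟨S, le_top, hS, ?_⟩
    have := two_finrank_le_of_singular (nondegenerate_of_polarizes hQ) hS
    rw [finrank_space] at this
    rw [finrank_top, finrank_space]
    omega
  · rintro ⟨S, -, hS, hSd⟩
    rw [finrank_top, finrank_space] at hSd
    exact ⟨S, hS, by omega⟩

theorem isPlus_of_map {Q Q' : QuadraticForm F V} (L : V ≃ₗ[F] V) (h : ∀ v, Q' (L v) = Q v)
    (hp : IsPlus d Q) : IsPlus d Q' := by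
  obtain ⟨S, hS, hSd⟩ := hp
  refine ⟨S.map (L : V →ₗ[F] V), ?_, by rwa [LinearEquiv.finrank_map_eq]⟩
  rintro _ ⟨v, hv, rfl⟩
  exact (h v).trans (hS v hv)

theorem isPlus_iff_of_map {Q Q' : QuadraticForm F V} (L : V ≃ₗ[F] V) (h : ∀ v, Q' (L v) = Q v) :
    IsPlus d Q ↔ IsPlus d Q' :=
  ⟨isPlus_of_map L h, isPlus_of_map L.symm fun v => by rw [← h, LinearEquiv.apply_symm_apply]⟩

theorem isPlus_quadPlus : IsPlus d (quadPlus F d) := by
  let ι : (Fin d → F) →ₗ[F] V :=
    { toFun := fun x => Sum.elim x 0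
      map_add' := fun x y => by funext i; rcases i with i | i <;> simp
      map_smul' := fun c x => by funext i; rcases i with i | i <;> simp }
  refine ⟨LinearMap.range ι, ?_, ?_⟩
  · rintro _ ⟨x, rfl⟩
    simp [ι, Cfsg.quadFormPlus]
  · rw [LinearMap.finrank_range_of_inj (fun x y h => funext fun i => by
      simpa [ι] using congrFun h (Sum.inl i)), Module.finrank_fintype_fun_eq_card, Fintype.card_fin]

theorem ne_scalar_of_fixedPointFree (h2 : (2 : F) = 0) (hd : 1 ≤ d) {x : GL (Fin d ⊕ Fin d) F}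
    (hx : x ∈ Cfsg.spGL d F) (hfix : ∀ v, mx x *ᵥ v = v → v = 0) (z : F) :
    mx x ≠ z • (1 : Matrix (Fin d ⊕ Fin d) (Fin d ⊕ Fin d) F) := by
  intro hz
  have e0 : (Pi.single (Sum.inl (⟨0, hd⟩ : Fin d)) 1 : V) ≠ 0 := by simp
  obtain ⟨w, hw⟩ := CfsgLib.SpGeom.exists_form_ne_zero e0
  have h := mem_spGL.1 hx (Pi.single (Sum.inl (⟨0, hd⟩ : Fin d)) 1) w
  simp only at hz
  rw [hz, Matrix.smul_mulVec, Matrix.smul_mulVec, Matrix.one_mulVec, Matrix.one_mulVec,
    CfsgLib.SpGeom.form_smul_left, CfsgLib.SpGeom.form_smul_right, ← mul_assoc] at h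
  have h1 : z * z = 1 := mul_right_cancel₀ hw (h.trans (one_mul _).symm)
  have h3 : (z - 1) * (z - 1) = 0 := by linear_combination h1 + (1 - z) * h2
  rw [sub_eq_zero.1 (mul_self_eq_zero.1 h3), one_smul] at hz
  exact e0 (hfix _ (by simp only [hz, Matrix.one_mulVec]))

/-- Invariant polarising forms agree on the image of `x - 1`. -/
theorem eq_on_sub (h2 : (2 : F) = 0) {Q Q' : QuadraticForm F V} (hQ : Polarizes Q) (hQ' : Polarizes Q')
    {T : V → V} (h : ∀ v, Q (T v) = Q v) (h' : ∀ v, Q' (T v) = Q' v) (w : V) :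
    Q' (T w - w) = Q (T w - w) := by
  rw [CfsgLib.Forms.map_sub', CfsgLib.Forms.map_sub', hQ, hQ', h, h']
  linear_combination (Q' w - Q w) * h2

variable [Fintype F]

/-- If the invariant forms of `x` have one type only, `x` has no conjugate preserving a form of the other type. -/
theorem not_mem_sim (hd : 1 ≤ d) {Q : QuadraticForm F V} (hQ : Polarizes Q)
    {x : GL (Fin d ⊕ Fin d) F}
    (hall : ∀ Q' : QuadraticForm F V, Polarizes Q' → (∀ v, Q' (mx x *ᵥ v) = Q' v) → ¬ (IsPlus d Q' ↔ IsPlus d Q))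
    (hx : x ∈ Cfsg.spGL d F) {g : GL (Fin d ⊕ Fin d) F} (hg : g ∈ Cfsg.spGL d F) :
    g⁻¹ * x * g ∉ Cfsg.Geo.quadSimilarityGroup ⇑Q := by
  intro hm
  have hy : g⁻¹ * x * g ∈ Cfsg.spGL d F := mul_mem (mul_mem (inv_mem hg) hx) hg
  obtain ⟨c, hc⟩ := hm
  have e0 : (Pi.single (Sum.inl (⟨0, hd⟩ : Fin d)) 1 : V) ≠ 0 := by simp
  obtain ⟨w, hw⟩ := CfsgLib.SpGeom.exists_form_ne_zero e0
  have h := mem_spGL.1 hy (Pi.single (Sum.inl (⟨0, hd⟩ : Fin d)) 1) w
  rw [← hQ, ← hQ _ w] at h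
  rw [← hQ] at hw
  simp only [polar, ← Matrix.mulVec_add, hc] at h
  have hc1 : (c : F) = 1 := mul_right_cancel₀ hw (by simp only [polar]; linear_combination h)
  let L : V ≃ₗ[F] V := glEquiv g⁻¹
  have hL : ∀ v, L v = mx g⁻¹ *ᵥ v := fun v => glEquiv_apply _ _
  let Q' : QuadraticForm F V := Q.comp (L : V →ₗ[F] V)
  have hQ' : Polarizes Q' := fun u v => by
    show polar (fun w => Q (L w)) u v = _
    simp only [polar, map_add]
    rw [show Q (L u + L v) - Q (L u) - Q (L v) = polar Q (L u) (L v) from rfl, hQ, hL, hL]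
    exact mem_spGL.1 (inv_mem hg) u v
  refine hall Q' hQ' (fun v => ?_) (isPlus_iff_of_map L fun v => rfl)
  show Q (L (mx x *ᵥ v)) = Q (L v)
  have h1 := hc (mx g⁻¹ *ᵥ v)
  rw [hc1, one_mul, Matrix.mulVec_mulVec, ← Units.val_mul, mul_inv_cancel_right] at h1
  rw [hL, hL, Matrix.mulVec_mulVec]
  rw [Units.val_mul] at h1
  exact h1

/-- A fixed-point-free invariant element determines the form. -/
theorem unique_form (h2 : (2 : F) = 0) {Q : QuadraticForm F V} (hQ : Polarizes Q) {x : GL (Fin d ⊕ Fin d) F}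
    (hfix : ∀ v, mx x *ᵥ v = v → v = 0) (h : ∀ v, Q (mx x *ᵥ v) = Q v) {Q' : QuadraticForm F V}
    (hQ' : Polarizes Q') (h' : ∀ v, Q' (mx x *ᵥ v) = Q' v) : Q' = Q := by
  let N : V →ₗ[F] V := Matrix.toLin' (mx x) - 1
  have hinj : Function.Injective N := (injective_iff_map_eq_zero N).2 fun v hv => hfix v (by
    simpa [N, sub_eq_zero] using hv)
  refine QuadraticMap.ext fun v => ?_
  obtain ⟨w, rfl⟩ := LinearMap.injective_iff_surjective.1 hinj v
  simpa [N] using eq_on_sub h2 hQ hQ' h h' w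

/-- A fixed-point-free element of prime order preserving a form of minus type. -/
theorem exists_fpf_minus [CharP F 2] (hd : 1 ≤ d) (r : ℕ) [Fact r.Prime]
    (hr : r ∣ Fintype.card F ^ d + 1) :
    ∃ (x : GL (Fin d ⊕ Fin d) F) (Q : QuadraticForm F V), Polarizes Q ∧ ¬ IsPlus d Q ∧
      (∀ v, Q (mx x *ᵥ v) = Q v) ∧ x ^ r = 1 ∧ ∀ v, mx x *ᵥ v = v → v = 0 := by
  classical
  have h2 : (2 : F) = 0 := by exact_mod_cast CharP.cast_eq_zero F 2
  let c : V := Pi.single (Sum.inl ⟨0, hd⟩) 1 + Pi.single (Sum.inr ⟨0, hd⟩) 1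
  have hc : quadPlus F d c ≠ 0 := by
    rw [coe_quadPlus, Cfsg.quadFormPlus, Finset.sum_eq_single ⟨0, hd⟩] <;>
      simp +contextual [c, Pi.single_apply]
  obtain ⟨t, ht⟩ := (exists_shift_types h2 hd finrank_space (nondegenerate_quadPlus d) hc).2
  set Q := shift (quadPlus F d) (t • c)
  have hQ : Polarizes Q := polarizes_shift h2 (polarizes_quadPlus h2) _
  have hn := nondegenerate_of_polarizes hQ
  obtain ⟨e, he⟩ : ∃ e : F, ∀ t : F, t ^ 2 + t + e ≠ 0 := by
    rcases exists_singular_or_elliptic hd finrank_space hn with ⟨b, h0, hb⟩ | ⟨e, he, -⟩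
    · exact absurd (not_singular_half b h0 hb) ht
    · exact ⟨e, he⟩
  have ht' : ¬ ∃ S : Submodule F V, (∀ v ∈ S, Q v = 0) ∧ d ≤ Module.finrank F S := ht
  obtain ⟨L, hL⟩ := exists_isometry_minus (Q := Q) (m := d) (a := 1) (b := e) hd finrank_space hn ht'
    (anis_of_irred he)
  obtain ⟨g, hg, hgr, hgfix⟩ := exists_derangement_minus d hd (anis_of_irred he) r hr
  let ψ : GL ((Fin (d - 1) ⊕ Fin (d - 1)) ⊕ Fin 2) F →* (V ≃ₗ[F] V) :=
    MonoidHom.mk' (fun u => L.trans ((glEquiv u).trans L.symm)) fun u v => by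
      rw [map_mul]
      exact LinearEquiv.ext fun w => by simp [LinearEquiv.mul_apply]
  refine ⟨glEquiv.symm (ψ g), Q, hQ, ht, fun v => ?_, by rw [← map_pow, ← map_pow, hgr, map_one, map_one],
    fun v hv => ?_⟩
  · simp only [← glEquiv_apply, MulEquiv.apply_symm_apply]
    show Q (L.symm (glEquiv g (L v))) = Q v
    rw [← hL, LinearEquiv.apply_symm_apply, glEquiv_apply, ← hL v]
    exact hg (L v) 0
  · simp only [← glEquiv_apply, MulEquiv.apply_symm_apply] at hv
    have h1 : glEquiv g (L v) = L v := by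
      have := congrArg L hv
      simpa [ψ] using this
    rw [glEquiv_apply] at h1
    exact L.map_eq_zero_iff.1 (hgfix _ h1)

/-- A fixed-point-free element of prime order preserving a form of plus type. -/
theorem exists_fpf_plus [CharP F 2] (hd : 1 ≤ d) (r : ℕ) [hrf : Fact r.Prime]
    (hdvd : r ∣ Fintype.card F ^ d - 1) :
    ∃ x : GL (Fin d ⊕ Fin d) F, (∀ v, quadPlus F d (mx x *ᵥ v) = quadPlus F d v) ∧
      x ^ r = 1 ∧ ∀ v, mx x *ᵥ v = v → v = 0 := by
  classical
  have hr : r.Prime := hrf.out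
  -- a fixed-point-free element of order `r` of `GL_d`
  obtain ⟨A, hAr, hA1, hAfix, hAfix'⟩ : ∃ A : GL (Fin d) F, A ^ r = 1 ∧ A ≠ 1 ∧
      (∀ y, (A : Matrix (Fin d) (Fin d) F) *ᵥ y = y → y = 0) ∧
      (∀ y, ((A⁻¹ : GL (Fin d) F) : Matrix (Fin d) (Fin d) F)ᵀ *ᵥ y = y → y = 0) := by
    haveI : NeZero d := ⟨by omega⟩
    let K := FiniteField.Extension F 2 d
    let bK := (Module.finBasis F K).reindex (finCongr (FiniteField.finrank_extension F 2 d))
    have : Fintype Kˣ := Fintype.ofFinite _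
    obtain ⟨ζ, hζ⟩ := exists_prime_orderOf_dvd_card' (G := Kˣ) r (by
      rw [Nat.card_units, FiniteField.natCard_extension, Nat.card_eq_fintype_card]
      exact hdvd)
    obtain ⟨φ, hφ⟩ : ∃ φ : K →+* Matrix (Fin d) (Fin d) F,
        φ = (Algebra.leftMulMatrix bK).toRingHom := ⟨_, rfl⟩
    have hζ1 : (ζ : K) ≠ 1 := fun h => by
      rw [show ζ = 1 from Units.ext h, orderOf_one] at hζ
      exact hr.ne_one hζ.symm
    have hfix : ∀ η : K, η ≠ 1 → ∀ M : Matrix (Fin d) (Fin d) F, M = φ η → IsUnit (M - 1) := by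
      rintro η hη M rfl
      rw [← map_one φ, ← map_sub]
      exact (isUnit_iff_ne_zero.2 (sub_ne_zero.2 hη)).map φ
    refine ⟨Units.map φ.toMonoidHom ζ, ?_, ?_, ?_, ?_⟩
    · rw [← map_pow, ← hζ, pow_orderOf_eq_one, map_one]
    · intro h
      have := (hfix (ζ : K) hζ1 _ rfl)
      rw [show φ (ζ : K) = 1 from congrArg Units.val h, sub_self] at this
      exact not_isUnit_zero this
    · intro y hy
      have hu := hfix (ζ : K) hζ1 _ (rfl : φ (ζ : K) = φ (ζ : K))
      apply Matrix.mulVec_injective_of_isUnit hu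
      rw [Matrix.mulVec_zero, Matrix.sub_mulVec, Matrix.one_mulVec]
      exact sub_eq_zero.2 hy
    · intro y hy
      have hu := hfix ((ζ⁻¹ : Kˣ) : K) (fun h => hζ1 (by
        have h' : ζ⁻¹ = 1 := Units.ext h
        rw [inv_eq_one.1 h', Units.val_one])) _ (rfl : φ ((ζ⁻¹ : Kˣ) : K) = _)
      apply Matrix.mulVec_injective_of_isUnit ((Matrix.isUnit_transpose _).2 hu)
      rw [Matrix.mulVec_zero, Matrix.transpose_sub, Matrix.transpose_one, Matrix.sub_mulVec,
        Matrix.one_mulVec]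
      rw [← map_inv] at hy
      exact sub_eq_zero.2 hy
  refine ⟨levi A, fun v => ?_, by rw [levi_pow, hAr, levi_one], fun v hv => ?_⟩
  · rw [coe_quadPlus]
    exact levi_isometry A v 0
  · simp only [levi_mulVec] at hv
    have h1 := hAfix (v ∘ Sum.inl) (funext fun i => by simpa using congrFun hv (Sum.inl i))
    have h2 := hAfix' (v ∘ Sum.inr) (funext fun i => by simpa using congrFun hv (Sum.inr i))
    funext i
    rcases i with i | i
    · exact congrFun h1 i
    · exact congrFun h2 i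

/-- For even `d` an involution all of whose invariant forms have plus type. -/
theorem exists_involution_plus_only [CharP F 2] (hd : 1 ≤ d) (hde : Even d) :
    ∃ x : GL (Fin d ⊕ Fin d) F, x ∈ Cfsg.spGL d F ∧ x ^ 2 = 1 ∧
      (∀ z : F, mx x ≠ z • (1 : Matrix (Fin d ⊕ Fin d) (Fin d ⊕ Fin d) F)) ∧
      ∀ Q' : QuadraticForm F V, Polarizes Q' → (∀ v, Q' (mx x *ᵥ v) = Q' v) → IsPlus d Q' := by
  classical
  have hF2 : (2 : F) = 0 := by exact_mod_cast CharP.cast_eq_zero F 2
  obtain ⟨k, hk⟩ := hde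
  let a : Fin k → Fin d := fun l => ⟨2 * l.1, by omega⟩
  let b : Fin k → Fin d := fun l => ⟨2 * l.1 + 1, by omega⟩
  let S : Matrix (Fin d) (Fin d) F := ∑ l, pairMat (a l) (b l)
  have hab : ∀ l l', (a l ≠ b l') ∧ (a l = a l' ↔ l = l') ∧ (b l = b l' ↔ l = l') := fun l l' =>
    ⟨by simp [a, b, Fin.ext_iff]; omega, by simp [a, Fin.ext_iff], by simp [b, Fin.ext_iff]⟩
  have hker : ∀ y, S *ᵥ y = 0 → y = 0 := by
    intro y hy
    have hS : S *ᵥ y = ∑ l, (Pi.single (a l) (y (b l)) + Pi.single (b l) (y (a l))) := by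
      simp only [S, Matrix.sum_mulVec, pairMat_mulVec]
    rw [hS] at hy
    have ha0 : ∀ l, y (b l) = 0 := fun l => by
      have h1 := congrFun hy (a l)
      rw [Finset.sum_apply, Finset.sum_eq_single l] at h1
      · simpa [(hab l l).1] using h1
      · intro l' _ hl'
        simp [Pi.single_apply, (hab l l').1, (hab l l').2.1, Ne.symm hl']
      · simp
    have hb0 : ∀ l, y (a l) = 0 := fun l => by
      have h1 := congrFun hy (b l)
      rw [Finset.sum_apply, Finset.sum_eq_single l] at h1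
      · simpa [(hab l l).1.symm] using h1
      · intro l' _ hl'
        simp [Pi.single_apply, (hab l' l).1.symm, (hab l l').2.2, Ne.symm hl']
      · simp
    funext c
    rcases Nat.mod_two_eq_zero_or_one c.1 with h | h
    · have : c = a ⟨c.1 / 2, by omega⟩ := Fin.ext (by simp [a]; omega)
      rw [this]; exact hb0 _
    · have : c = b ⟨c.1 / 2, by omega⟩ := Fin.ext (by simp [b]; omega)
      rw [this]; exact ha0 _
  have hdot : ∀ y, (S *ᵥ y) ⬝ᵥ y = 0 := fun y => by
    simp only [S, Matrix.sum_mulVec, sum_dotProduct, pairMat_dot hF2, Finset.sum_const_zero]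
  have hinv : ∀ v, quadPlus F d (mx (unip S) *ᵥ v) = quadPlus F d v := fun v => by
    rw [coe_quadPlus]
    exact unip_isometry hdot v 0
  refine ⟨unip S, mem_spGL_of_map (polarizes_quadPlus hF2) (polarizes_quadPlus hF2) hinv, ?_, fun z hz => ?_, ?_⟩
  · rw [pow_two, ← unip_add, show S + S = 0 by rw [← two_smul F S, hF2, zero_smul], unip_zero]
  · have h0 : S = 0 := by
      ext i j
      have := congrFun (congrFun hz (Sum.inl i)) (Sum.inr j)
      simpa [coe_unip] using this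
    have h1 := hker (Pi.single ⟨0, hd⟩ 1) (by rw [h0, Matrix.zero_mulVec])
    simpa using congrFun h1 ⟨0, hd⟩
  intro Q' hQ' hinv'
  let ι : (Fin d → F) →ₗ[F] V :=
    { toFun := fun x => Sum.elim x 0
      map_add' := fun x y => by funext i; rcases i with i | i <;> simp
      map_smul' := fun c x => by funext i; rcases i with i | i <;> simp }
  refine ⟨LinearMap.range ι, ?_, ?_⟩
  · rintro _ ⟨x, rfl⟩
    obtain ⟨y, hy⟩ := LinearMap.injective_iff_surjective.1
      ((injective_iff_map_eq_zero (Matrix.toLin' S)).2 fun y h => hker y (by simpa using h)) x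
    rw [Matrix.toLin'_apply] at hy
    have h1 := eq_on_sub hF2 (polarizes_quadPlus hF2) hQ' hinv hinv' (Sum.elim (0 : Fin d → F) y)
    have h2 : mx (unip S) *ᵥ Sum.elim (0 : Fin d → F) y - Sum.elim (0 : Fin d → F) y = ι x := by
      simp only [unip_mulVec]
      funext i
      rcases i with i | i <;> simp [ι, hy]
    rw [h2] at h1
    rw [h1]
    simp [ι, Cfsg.quadFormPlus]
  · rw [LinearMap.finrank_range_of_inj (fun x y h => funext fun i => by
      simpa [ι] using congrFun h (Sum.inl i)), Module.finrank_fintype_fun_eq_card, Fintype.card_fin]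

end CfsgLib.SpQuad
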