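import Cfsg.Agent.Forms.EvenType
import Cfsg.Agent.NonsingPoint.Basic
import Cfsg.Prelude.Def_ClassicalGeometry

set_option autoImplicit false

/-! Quadratic forms with a given alternating polar form in characteristic two: changing the type. -/

namespace CfsgLib.SpQuad

open QuadraticMap CfsgLib.Forms

variable {F : Type*} [Field F] {V : Type*} [AddCommGroup V] [Module F V]

/-- `Q` has a totally singular subspace of dimension at least `d`. -/
def IsPlus (d : ℕ) (Q : QuadraticForm F V) : Prop :=
  ∃ S : Submodule F V, (∀ v ∈ S, Q v = 0) ∧ d ≤ Module.finrank F S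

/-- The form `Q + f(a, ·)²`. -/
def shift (Q : QuadraticForm F V) (a : V) : QuadraticForm F V :=
  Q + linMulLin (polarBilin Q a) (polarBilin Q a)

theorem shift_apply (Q : QuadraticForm F V) (a v : V) :
    shift Q a v = Q v + polar Q a v * polar Q a v := rfl

theorem polar_shift (h2 : (2 : F) = 0) (Q : QuadraticForm F V) (a u v : V) :
    polar (shift Q a) u v = polar Q u v := by
  simp only [polar, shift_apply]
  have h : polar Q a (u + v) = polar Q a u + polar Q a v := polar_add_right Q a u v
  simp only [polar] at h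
  rw [h]
  linear_combination ((Q (a + u) - Q a - Q u) * (Q (a + v) - Q a - Q v)) * h2

theorem polar_eq_zero_of_singular {Q : QuadraticForm F V} {S : Submodule F V}
    (hS : ∀ v ∈ S, Q v = 0) {u v : V} (hu : u ∈ S) (hv : v ∈ S) : polar Q u v = 0 := by
  rw [polar, hS _ (add_mem hu hv), hS u hu, hS v hv, sub_zero, sub_zero]

variable [Finite F] [FiniteDimensional F V]

/-- A singular subspace of dimension `d - 1` orthogonal to a given nonsingular vector. -/
theorem exists_singular_perp (h2 : (2 : F) = 0) {Q : QuadraticForm F V} {d : ℕ}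
    (hV : Module.finrank F V = 2 * d) (hQ : (polarBilin Q).Nondegenerate) {c : V} (hc : Q c ≠ 0) :
    ∀ k : ℕ, k ≤ d - 1 → ∃ S : Submodule F V, Module.finrank F S = k ∧ (∀ s ∈ S, Q s = 0) ∧
      ∀ s ∈ S, polar Q c s = 0 := by
  intro k
  induction k with
  | zero => exact fun _ => ⟨⊥, finrank_bot F V, fun s hs => by rw [(Submodule.mem_bot F).1 hs, QuadraticMap.map_zero],
      fun s hs => by rw [(Submodule.mem_bot F).1 hs, polar_zero_right]⟩
  | succ k ih =>
    intro hk
    obtain ⟨S, hSk, hS, hSc⟩ := ih (by omega)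
    have hc0 : c ≠ 0 := fun h => hc (by rw [h, QuadraticMap.map_zero])
    set W := perp Q (S ⊔ Submodule.span F {c}) with hW
    have hWdim := finrank_perp hQ (S ⊔ Submodule.span F {c})
    have hle := Submodule.finrank_add_le_finrank_add_finrank S (Submodule.span F {c})
    rw [finrank_span_singleton hc0] at hle
    obtain ⟨S', hS'⟩ := Submodule.exists_isCompl S
    have hsum := Submodule.finrank_add_eq_of_isCompl hS'
    have hinf := Submodule.finrank_sup_add_finrank_inf_eq W S'
    have hsup := Submodule.finrank_le (W ⊔ S')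
    rw [← hW] at hWdim
    obtain ⟨x, hx, hx0, hQx⟩ := exists_singular Q (W ⊓ S') (by omega)
    obtain ⟨hxW, hxS'⟩ := Submodule.mem_inf.1 hx
    have hxS : x ∉ S := fun h => hx0 ((Submodule.disjoint_def.1 hS'.disjoint) x h hxS')
    refine ⟨S ⊔ Submodule.span F {x}, ?_, fun s hs => ?_, fun s hs => ?_⟩
    · have hd : S ⊓ Submodule.span F {x} = ⊥ :=
        disjoint_iff.1 ((Submodule.disjoint_span_singleton' hx0).2 hxS)
      have := Submodule.finrank_sup_add_finrank_inf_eq S (Submodule.span F {x})
      rw [hd, finrank_bot, finrank_span_singleton hx0] at this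
      omega
    all_goals
      obtain ⟨s₀, hs₀, y, hy, rfl⟩ := Submodule.mem_sup.1 hs
      obtain ⟨t, rfl⟩ := Submodule.mem_span_singleton.1 hy
    · rw [map_add_smul, hS s₀ hs₀, hQx, polar_comm,
        mem_perp.1 hxW s₀ (Submodule.mem_sup_left hs₀)]
      ring
    · rw [polar_add_right, hSc s₀ hs₀, polar_smul_right, polar_comm,
        mem_perp.1 hxW c (Submodule.mem_sup_right (Submodule.mem_span_singleton_self c)), smul_zero, add_zero]

/-- A maximal singular subspace with anisotropic quotient excludes plus type. -/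
theorem not_isPlus_of_anisotropic {Q : QuadraticForm F V} {d : ℕ} (hd : 1 ≤ d)
    (hV : Module.finrank F V = 2 * d) (hQ : (polarBilin Q).Nondegenerate) {S : Submodule F V}
    (hSd : Module.finrank F S = d - 1) (hS : ∀ s ∈ S, Q s = 0)
    (hanis : ∀ w ∈ perp Q S, Q w = 0 → w ∈ S) : ¬ IsPlus d Q := by
  rintro ⟨S', hS', hS'd⟩
  have hle : ∀ w ∈ S' ⊓ perp Q S, w ∈ S := fun w hw =>
    hanis w (Submodule.mem_inf.1 hw).2 (hS' w (Submodule.mem_inf.1 hw).1)
  have hperp : perp Q (S' ⊔ S) ≤ S' := by
    intro w hw
    have h1 : perp Q S' = S' := by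
      refine (Submodule.eq_of_le_of_finrank_le (fun u hu => mem_perp.2 fun v hv =>
        polar_eq_zero_of_singular hS' hu hv) ?_).symm
      have := finrank_perp hQ S'
      omega
    rw [← h1]
    exact mem_perp.2 fun u hu => mem_perp.1 hw u (Submodule.mem_sup_left hu)
  have hperp' : perp Q (S' ⊔ S) ≤ S' ⊓ S := fun w hw => Submodule.mem_inf.2 ⟨hperp hw,
    hle w (Submodule.mem_inf.2 ⟨hperp hw, mem_perp.2 fun u hu => mem_perp.1 hw u (Submodule.mem_sup_right hu)⟩)⟩
  have h1 := Submodule.finrank_mono hperp'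
  have h2 := finrank_perp hQ (S' ⊔ S)
  have h3 := Submodule.finrank_sup_add_finrank_inf_eq S' S
  have h4 := Submodule.finrank_le (S' ⊔ S)
  have h5 := two_finrank_le_of_singular hQ hS'
  omega

/-- Along a nonsingular vector both types occur. -/
theorem exists_shift_types (h2 : (2 : F) = 0) {Q : QuadraticForm F V} {d : ℕ} (hd : 1 ≤ d)
    (hV : Module.finrank F V = 2 * d) (hQ : (polarBilin Q).Nondegenerate) {c : V} (hc : Q c ≠ 0) :
    (∃ t : F, IsPlus d (shift Q (t • c))) ∧ ∃ t : F, ¬ IsPlus d (shift Q (t • c)) := by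
  classical
  obtain ⟨S, hSd, hS, hSc⟩ := exists_singular_perp h2 hV hQ hc (d - 1) le_rfl
  have hcS : c ∉ S := fun h => hc (hS c h)
  obtain ⟨v, hv, hcv⟩ := exists_polar_eq_one hQ hcS
  have hsh : ∀ t w, shift Q (t • c) w = Q w + t * t * (polar Q c w * polar Q c w) := fun t w => by
    rw [shift_apply, polar_smul_left, smul_eq_mul]; ring
  have hSv : ∀ s ∈ S, polar Q s v = 0 := fun s hs => by rw [polar_comm]; exact mem_perp.1 hv s hs
  have hcc : polar Q c c = 0 := by rw [polar_self, two_nsmul, ← two_mul, h2, zero_mul]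
  constructor
  · obtain ⟨t, ht⟩ := exists_sq h2 (Q v)
    have hvS : v ∉ S := fun h => by simp [hSc v h] at hcv
    have hv0 : v ≠ 0 := fun h => hvS (h ▸ zero_mem _)
    refine ⟨t, S ⊔ Submodule.span F {v}, fun w hw => ?_, ?_⟩
    · obtain ⟨s, hs, y, hy, rfl⟩ := Submodule.mem_sup.1 hw
      obtain ⟨k, rfl⟩ := Submodule.mem_span_singleton.1 hy
      rw [hsh, map_add_smul, polar_add_right, polar_smul_right, hSc s hs, hcv, hS s hs, hSv s hs,
        smul_eq_mul]
      linear_combination (k * k) * ht + (k * k * Q v) * h2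
    · have hdd : S ⊓ Submodule.span F {v} = ⊥ :=
        disjoint_iff.1 ((Submodule.disjoint_span_singleton' hv0).2 hvS)
      have := Submodule.finrank_sup_add_finrank_inf_eq S (Submodule.span F {v})
      rw [hdd, finrank_bot, finrank_span_singleton hv0] at this
      omega
  · obtain ⟨e, he⟩ : ∃ e : F, ∀ t : F, t ^ 2 + t + e ≠ 0 := by
      have : ¬ Function.Surjective fun t : F => t ^ 2 + t := fun h => by
        have := (Finite.injective_iff_surjective.2 h) (a₁ := 0) (a₂ := 1) (by
          show (0 : F) ^ 2 + 0 = 1 ^ 2 + 1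
          linear_combination -h2)
        exact zero_ne_one this
      simp only [Function.Surjective, not_forall, not_exists] at this
      obtain ⟨e, he⟩ := this
      exact ⟨e, fun t h => he t (by linear_combination h - e * h2)⟩
    obtain ⟨t, ht⟩ := exists_sq h2 (Q v + e / Q c)
    refine ⟨t, not_isPlus_of_anisotropic hd hV ?_ hSd (fun s hs => ?_) ?_⟩
    · exact nondegenerate_iff.2 fun x hx => polar_ext hQ fun y => by
        rw [← polar_shift h2 Q (t • c) x y]; exact hx y
    · rw [hsh, hS s hs, hSc s hs]; ring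
    intro w hw hQw
    have hw' : w ∈ perp Q S := mem_perp.2 fun u hu => by
      rw [← polar_shift h2 Q (t • c)]; exact mem_perp.1 hw u hu
    have hdec : perp Q S = S ⊔ Submodule.span F {c} ⊔ Submodule.span F {v} := by
      refine (Submodule.eq_of_le_of_finrank_le ?_ ?_).symm
      · refine sup_le (sup_le ?_ ?_) ((Submodule.span_singleton_le_iff_mem _ _).2 hv)
        · exact fun u hu => mem_perp.2 fun s hs => polar_eq_zero_of_singular hS hu hs
        · exact (Submodule.span_singleton_le_iff_mem _ _).2 (mem_perp.2 fun s hs => hSc s hs)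
      · have hc0 : c ≠ 0 := fun h => hcS (h ▸ zero_mem _)
        have hvS : v ∉ S ⊔ Submodule.span F {c} := fun h => by
          obtain ⟨s, hs, y, hy, rfl⟩ := Submodule.mem_sup.1 h
          obtain ⟨k, rfl⟩ := Submodule.mem_span_singleton.1 hy
          simp [polar_add_right, hSc s hs, polar_smul_right, hcc] at hcv
        have hv0 : v ≠ 0 := fun h => hvS (h ▸ zero_mem _)
        have e1 := Submodule.finrank_sup_add_finrank_inf_eq S (Submodule.span F {c})
        rw [disjoint_iff.1 ((Submodule.disjoint_span_singleton' hc0).2 hcS), finrank_bot,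
          finrank_span_singleton hc0] at e1
        have e2 := Submodule.finrank_sup_add_finrank_inf_eq (S ⊔ Submodule.span F {c}) (Submodule.span F {v})
        rw [disjoint_iff.1 ((Submodule.disjoint_span_singleton' hv0).2 hvS), finrank_bot,
          finrank_span_singleton hv0] at e2
        have e3 := finrank_perp hQ S
        omega
    rw [hdec] at hw'
    obtain ⟨z, hz, y, hy, rfl⟩ := Submodule.mem_sup.1 hw'
    obtain ⟨s, hs, y', hy', rfl⟩ := Submodule.mem_sup.1 hz
    obtain ⟨k, rfl⟩ := Submodule.mem_span_singleton.1 hy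
    obtain ⟨l, rfl⟩ := Submodule.mem_span_singleton.1 hy'
    rw [hsh, map_add_smul, map_add_smul, polar_add_left, polar_smul_left, polar_add_right,
      polar_add_right, polar_smul_right, polar_smul_right, hS s hs, polar_comm Q s c, hSc s hs,
      hSv s hs, hcv, hcc] at hQw
    simp only [smul_eq_mul] at hQw
    have hkey : (l * Q c) ^ 2 + 1 * (l * Q c) * k + e * k ^ 2 = 0 := by
      linear_combination (Q c) * hQw - k ^ 2 * (Q c) * ht -
        (k ^ 2 * Q c * Q v) * h2 - k ^ 2 * (div_mul_cancel₀ e hc)
    obtain ⟨hl, hk⟩ := anis_of_irred he _ _ hkey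
    rw [hk, (mul_eq_zero.1 hl).resolve_right hc, zero_smul, zero_smul, add_zero, add_zero]
    exact hs

end CfsgLib.SpQuad
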