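import Cfsg.Agent.SpQuad.Basic
import Cfsg.Agent.OrthOrder.Orders
import Cfsg.Agent.SpGeom.Order
import Cfsg.Agent.Forms.GeoBridge

set_option autoImplicit false

/-! Quadratic forms polarising to the standard symplectic form in characteristic two. -/

namespace CfsgLib.SpQuad

open Matrix QuadraticMap CfsgLib.Forms

variable {F : Type*} [Field F] {d : ℕ}

local notation "V" => (Fin d ⊕ Fin d → F)

/-- The polar form of `Q` is the standard symplectic form. -/
def Polarizes (Q : QuadraticForm F V) : Prop :=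
  ∀ u v, polar Q u v = Cfsg.sympForm d F u v

theorem polarizes_quadPlus (h2 : (2 : F) = 0) : Polarizes (quadPlus F d) := fun u v => by
  rw [coe_quadPlus, polar_plus, CfsgLib.SpGeom.form_def]
  exact Finset.sum_congr rfl fun i _ => by linear_combination (u (Sum.inl i) * v (Sum.inr i)) * h2

theorem polarizes_shift (h2 : (2 : F) = 0) {Q : QuadraticForm F V} (hQ : Polarizes Q) (a : V) :
    Polarizes (shift Q a) := fun u v => by rw [polar_shift h2, hQ]

theorem nondegenerate_of_polarizes {Q : QuadraticForm F V} (hQ : Polarizes Q) :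
    (polarBilin Q).Nondegenerate :=
  nondegenerate_iff.2 fun x hx => by_contra fun hx0 => by
    obtain ⟨y, hy⟩ := CfsgLib.SpGeom.exists_form_ne_zero hx0
    exact hy ((hQ x y).symm.trans (hx y))

theorem mem_spGL {g : GL (Fin d ⊕ Fin d) F} :
    g ∈ Cfsg.spGL d F ↔ ∀ u v, Cfsg.sympForm d F ((g : Matrix (Fin d ⊕ Fin d) (Fin d ⊕ Fin d) F) *ᵥ u)
      ((g : Matrix (Fin d ⊕ Fin d) (Fin d ⊕ Fin d) F) *ᵥ v) = Cfsg.sympForm d F u v :=
  Iff.rfl

/-- A similarity between two polarising forms is symplectic. -/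
theorem mem_spGL_of_map {Q Q' : QuadraticForm F V} (hQ : Polarizes Q) (hQ' : Polarizes Q')
    {g : GL (Fin d ⊕ Fin d) F}
    (h : ∀ v, Q' ((g : Matrix (Fin d ⊕ Fin d) (Fin d ⊕ Fin d) F) *ᵥ v) = Q v) : g ∈ Cfsg.spGL d F := by
  refine mem_spGL.2 fun u v => ?_
  rw [← hQ', ← hQ u v]
  simp only [polar, ← Matrix.mulVec_add, h]

theorem finrank_space : Module.finrank F V = 2 * d := by
  rw [Module.finrank_fintype_fun_eq_card, Fintype.card_sum, Fintype.card_fin, two_mul]

variable [Finite F]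

/-- Two polarising forms of the same type are conjugate under the symplectic group. -/
theorem exists_conj (h2 : (2 : F) = 0) (hd : 1 ≤ d) {Q Q' : QuadraticForm F V} (hQ : Polarizes Q)
    (hQ' : Polarizes Q') (h : IsPlus d Q ↔ IsPlus d Q') :
    ∃ g ∈ Cfsg.spGL d F, ∀ v, Q' ((g : Matrix (Fin d ⊕ Fin d) (Fin d ⊕ Fin d) F) *ᵥ v) = Q v := by
  classical
  have hn := nondegenerate_of_polarizes hQ
  have hn' := nondegenerate_of_polarizes hQ'
  obtain ⟨L, hL⟩ : ∃ L : V ≃ₗ[F] V, ∀ v, Q' (L v) = Q v := by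
    by_cases hp : IsPlus d Q
    · obtain ⟨S, hS, hSd⟩ := hp
      obtain ⟨S', hS', hSd'⟩ := h.1 ⟨S, hS, hSd⟩
      obtain ⟨g, hg⟩ := exists_isometry_plus hd finrank_space hn S hS hSd
      obtain ⟨g', hg'⟩ := exists_isometry_plus hd finrank_space hn' S' hS' hSd'
      exact ⟨g.trans g'.symm, fun v => by
        rw [LinearEquiv.trans_apply, ← hg', LinearEquiv.apply_symm_apply, hg]⟩
    · obtain ⟨e, he⟩ : ∃ e : F, ∀ t : F, t ^ 2 + t + e ≠ 0 := by
        rcases exists_singular_or_elliptic hd finrank_space hn with ⟨b, h0, hb⟩ | ⟨c, hc, -⟩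
        · exact absurd (not_singular_half b h0 hb) hp
        · exact ⟨c, hc⟩
      have hp' : ¬ ∃ S : Submodule F V, (∀ v ∈ S, Q v = 0) ∧ d ≤ Module.finrank F S := hp
      have hp'' : ¬ ∃ S : Submodule F V, (∀ v ∈ S, Q' v = 0) ∧ d ≤ Module.finrank F S := mt h.2 hp
      obtain ⟨g, hg⟩ := exists_isometry_minus (Q := Q) (m := d) (a := 1) (b := e) hd finrank_space hn hp' (anis_of_irred he)
      obtain ⟨g', hg'⟩ := exists_isometry_minus (Q := Q') (m := d) (a := 1) (b := e) hd finrank_space hn' hp'' (anis_of_irred he)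
      exact ⟨g.trans g'.symm, fun v => by
        rw [LinearEquiv.trans_apply, ← hg', LinearEquiv.apply_symm_apply, hg]⟩
  refine ⟨glEquiv.symm L, mem_spGL_of_map hQ hQ' fun v => ?_, fun v => ?_⟩ <;>
    rw [← glEquiv_apply, MulEquiv.apply_symm_apply, hL]

/-- A symplectic involution preserves some polarising form. -/
theorem exists_invariant_form (h2 : (2 : F) = 0) (T : V →ₗ[F] V)
    (hT : ∀ u v, Cfsg.sympForm d F (T u) (T v) = Cfsg.sympForm d F u v) :
    ∃ Q : QuadraticForm F V, Polarizes Q ∧ ∀ v, Q (T v) = Q v := by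
  classical
  let Q₀ := quadPlus F d
  have hQ₀ : Polarizes Q₀ := polarizes_quadPlus h2
  have hsq : ∀ a b : F, a * a = b * b → a = b := fun a b h => by
    have : (a - b) * (a - b) = 0 := by linear_combination h + (b * b - a * b) * h2
    exact sub_eq_zero.1 (mul_self_eq_zero.1 this)
  have hl : ∀ v, ∃ r : F, r * r = Q₀ (T v) + Q₀ v := fun v => exists_sq h2 _
  choose r hr using hl
  let l : V →ₗ[F] F :=
    { toFun := r
      map_add' := fun u v => hsq _ _ (by
        have h1 := hr (u + v)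
        rw [map_add, QuadraticMap.map_add (⇑Q₀), QuadraticMap.map_add (⇑Q₀), hQ₀, hQ₀, hT] at h1
        linear_combination h1 - hr u - hr v + (Cfsg.sympForm d F u v - r u * r v) * h2)
      map_smul' := fun k v => hsq _ _ (by
        have h1 := hr (k • v)
        rw [map_smul, QuadraticMap.map_smul, QuadraticMap.map_smul, smul_eq_mul, smul_eq_mul] at h1
        simp only [RingHom.id_apply, smul_eq_mul]
        linear_combination h1 - (k * k) * hr v) }
  let N : V →ₗ[F] V := T - 1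
  have hker : LinearMap.ker N ≤ LinearMap.ker l := fun v hv => by
    rw [LinearMap.mem_ker] at hv ⊢
    have hv' : T v = v := sub_eq_zero.1 hv
    refine hsq _ _ ?_
    show r v * r v = 0 * 0
    rw [hr, hv']
    linear_combination (Q₀ v) * h2
  obtain ⟨m, hm⟩ := LinearMap.exists_extend
    (((LinearMap.ker N).liftQ l hker).comp N.quotKerEquivRange.symm.toLinearMap)
  obtain ⟨a, ha⟩ := exists_dual_vec (nondegenerate_of_polarizes hQ₀) m
  have hal : ∀ v, polar Q₀ a (N v) = l v := fun v => by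
    rw [ha]
    have := LinearMap.congr_fun hm ⟨N v, LinearMap.mem_range_self N v⟩
    simp only [LinearMap.comp_apply, Submodule.subtype_apply, LinearEquiv.coe_toLinearMap] at this
    rw [this, LinearMap.quotKerEquivRange_symm_apply_image N v (LinearMap.mem_range_self N v)]
    rfl
  refine ⟨shift Q₀ a, polarizes_shift h2 hQ₀ a, fun v => ?_⟩
  have h1 := hal v
  simp only [N, LinearMap.sub_apply, Module.End.one_apply, polar_sub_right] at h1
  rw [shift_apply, shift_apply, sub_eq_iff_eq_add'.1 h1]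
  have h3 : r v * r v = Q₀ (T v) + Q₀ v := hr v
  show Q₀ (T v) + (polar Q₀ a v + r v) * (polar Q₀ a v + r v) = _
  linear_combination h3 + (Q₀ (T v) + polar Q₀ a v * r v) * h2

/-- The index of the orthogonal group in the symplectic group. -/
theorem two_mul_relIndex [Fintype F] (h2 : (2 : F) = 0) (hd : 1 ≤ d) {Q : QuadraticForm F V}
    (hQ : Polarizes Q) :
    (IsPlus d Q → 2 * (Cfsg.Geo.quadSimilarityGroup ⇑Q).relIndex (Cfsg.spGL d F) =
      Fintype.card F ^ d * (Fintype.card F ^ d + 1)) ∧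
    (¬ IsPlus d Q → 2 * (Cfsg.Geo.quadSimilarityGroup ⇑Q).relIndex (Cfsg.spGL d F) =
      Fintype.card F ^ d * (Fintype.card F ^ d - 1)) := by
  classical
  have hn := nondegenerate_of_polarizes hQ
  set H := (Cfsg.Geo.quadSimilarityGroup ⇑Q).subgroupOf (Cfsg.spGL d F) with hH
  have hone : ∀ g : H, ∀ v,
      Q ((((g : Cfsg.spGL d F) : GL (Fin d ⊕ Fin d) F) : Matrix (Fin d ⊕ Fin d) (Fin d ⊕ Fin d) F) *ᵥ v) = Q v := by
    intro g v
    obtain ⟨c, hc⟩ := (Subgroup.mem_subgroupOf.1 g.2 :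
      ((g : Cfsg.spGL d F) : GL (Fin d ⊕ Fin d) F) ∈ Cfsg.Geo.quadSimilarityGroup ⇑Q)
    obtain ⟨w, hw⟩ := CfsgLib.SpGeom.exists_form_ne_zero (F := F)
      (v := Pi.single (Sum.inl (⟨0, hd⟩ : Fin d)) (1 : F)) (by simp)
    have hg := mem_spGL.1 (g : Cfsg.spGL d F).2 (Pi.single (Sum.inl (⟨0, hd⟩ : Fin d)) (1 : F)) w
    rw [← hQ, ← hQ (Pi.single _ _) w] at hg
    rw [← hQ] at hw
    simp only [polar, ← Matrix.mulVec_add, hc] at hg
    have hc1 : (c : F) = 1 := mul_right_cancel₀ hw (by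
      simp only [polar]; linear_combination hg)
    rw [hc v, hc1, one_mul]
  have e : H ≃ isom Q :=
    { toFun := fun g => ⟨glEquiv ((g : Cfsg.spGL d F) : GL (Fin d ⊕ Fin d) F), fun v => by
        rw [glEquiv_apply]; exact hone g v⟩
      invFun := fun g => ⟨⟨glEquiv.symm g.1, mem_spGL_of_map hQ hQ fun v => by
          rw [← glEquiv_apply, MulEquiv.apply_symm_apply]; exact g.2 v⟩,
        Subgroup.mem_subgroupOf.2 ⟨1, fun v => by
          rw [Units.val_one, one_mul, ← glEquiv_apply, MulEquiv.apply_symm_apply]; exact g.2 v⟩⟩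
      left_inv := fun g => Subtype.ext (Subtype.ext (glEquiv.symm_apply_apply _))
      right_inv := fun g => Subtype.ext (glEquiv.apply_symm_apply _) }
  have eSp : Cfsg.spGL d F ≃ Matrix.symplecticGroup (Fin d) F :=
    Equiv.ofBijective (fun g => ⟨_, CfsgLib.SpGeom.mem_of_form (mem_spGL.1 g.2)⟩)
      ⟨fun a b h => Subtype.ext (Units.ext (congrArg Subtype.val h)), fun A =>
        ⟨⟨⟨(A : Matrix (Fin d ⊕ Fin d) (Fin d ⊕ Fin d) F), (A⁻¹ : Matrix.symplecticGroup (Fin d) F),
            congrArg Subtype.val (mul_inv_cancel A), congrArg Subtype.val (inv_mul_cancel A)⟩,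
          mem_spGL.2 fun u v => CfsgLib.SpGeom.form_mulVec A u v⟩, rfl⟩⟩
  have hmul : Nat.card (isom Q) * (Cfsg.Geo.quadSimilarityGroup ⇑Q).relIndex (Cfsg.spGL d F) =
      Fintype.card F ^ (d ^ 2) * ∏ i ∈ Finset.range d, (Fintype.card F ^ (2 * (i + 1)) - 1) := by
    rw [← CfsgLib.SpGeom.card_Sp, ← Nat.card_congr eSp, ← Nat.card_congr e]
    exact H.card_mul_index
  obtain ⟨m, rfl⟩ : ∃ m, d = m + 1 := ⟨d - 1, by omega⟩
  set q := Fintype.card F with hq
  set X := (Cfsg.Geo.quadSimilarityGroup ⇑Q).relIndex (Cfsg.spGL (m + 1) F) with hX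
  set P := ∏ i ∈ Finset.range m, (q ^ (2 * (i + 1)) - 1) with hP
  have hq1 : 1 < q := Fintype.one_lt_card
  have hPpos : 0 < P := Finset.prod_pos fun i _ => by
    have : 1 < q ^ (2 * (i + 1)) := Nat.one_lt_pow (by omega) hq1
    omega
  have hqd : 1 < q ^ (m + 1) := Nat.one_lt_pow (by omega) hq1
  have hsqd : q ^ (2 * (m + 1)) - 1 = (q ^ (m + 1) + 1) * (q ^ (m + 1) - 1) := by
    rw [← Nat.sq_sub_sq, ← pow_mul, one_pow, mul_comm 2]
  rw [Finset.prod_range_succ, hsqd, show (m + 1) ^ 2 = (m + 1) * m + (m + 1) by ring, pow_add] at hmul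
  constructor
  · rintro ⟨S, hS, hSd⟩
    obtain ⟨g, hg⟩ := exists_isometry_plus (by omega) finrank_space hn S hS hSd
    rw [Nat.card_congr (CfsgLib.OrthOrder.isomEquiv (Q' := quadPlus F (m + 1)) g fun v => by
      rw [coe_quadPlus, hg]), CfsgLib.OrthOrder.card_isom_plus, ← hq, ← hP] at hmul
    refine Nat.eq_of_mul_eq_mul_left
      (show 0 < q ^ ((m + 1) * m) * (q ^ (m + 1) - 1) * P from
        Nat.mul_pos (Nat.mul_pos (pow_pos (by omega) _) (by omega)) hPpos) ?_
    calc _ = (2 * q ^ ((m + 1) * m) * (q ^ (m + 1) - 1) * P) * X := by ring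
      _ = _ := hmul
      _ = _ := by ring
  · intro hp
    obtain ⟨c, hc⟩ : ∃ c : F, ∀ t : F, t ^ 2 + t + c ≠ 0 := by
      rcases exists_singular_or_elliptic (Nat.le_add_left 1 m) finrank_space hn with ⟨b, h0, hb⟩ | ⟨c, hc, -⟩
      · exact absurd (not_singular_half b h0 hb) hp
      · exact ⟨c, hc⟩
    obtain ⟨g, hg⟩ := exists_isometry_minus (Nat.le_add_left 1 m) finrank_space hn hp (anis_of_irred hc)
    rw [Nat.card_congr (CfsgLib.OrthOrder.isomEquiv (Q' := quadMinus F m 1 c) g fun v => by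
      rw [coe_quadMinus]; exact hg v), CfsgLib.OrthOrder.card_isom_minus (anis_of_irred hc), ← hq, ← hP] at hmul
    refine Nat.eq_of_mul_eq_mul_left
      (show 0 < q ^ ((m + 1) * m) * (q ^ (m + 1) + 1) * P from
        Nat.mul_pos (Nat.mul_pos (pow_pos (by omega) _) (by omega)) hPpos) ?_
    calc _ = (2 * q ^ ((m + 1) * m) * (q ^ (m + 1) + 1) * P) * X := by ring
      _ = _ := hmul
      _ = _ := by ring

end CfsgLib.SpQuad
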